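import Mathlib

/-!
# A double cover of the alternating group, through a Clifford-type algebra over the field with three elements
-/

set_option autoImplicit false
set_option linter.unusedSectionVars false
set_option linter.unusedVariables false

namespace Cfsg.Agent.Lib.DoubleCover

variable {n : ℕ}

/-- The module. -/
abbrev W (n : ℕ) : Type := Finset (Fin n) → ZMod 3

/-- The ring of endomorphisms. -/
abbrev A (n : ℕ) : Type := Module.End (ZMod 3) (W n)

/-- Toggle a point. -/
def tog (i : Fin n) (S : Finset (Fin n)) : Finset (Fin n) := if i ∈ S then S.erase i else insert i S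

lemma mem_tog (i a : Fin n) (S : Finset (Fin n)) : a ∈ tog i S ↔ (a = i ∧ i ∉ S) ∨ (a ≠ i ∧ a ∈ S) := by
  unfold tog
  by_cases h : i ∈ S
  · simp only [h, if_true, Finset.mem_erase, not_true, and_false, false_or]
  · simp only [h, if_false, Finset.mem_insert, not_false_iff, and_true]
    by_cases h2 : a = i
    · simp [h2]
    · simp [h2]

lemma tog_tog (i : Fin n) (S : Finset (Fin n)) : tog i (tog i S) = S := by
  ext a
  simp only [mem_tog]
  by_cases h2 : a = i
  · subst h2
    tauto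
  · simp [h2]

lemma tog_comm (i j : Fin n) (S : Finset (Fin n)) : tog i (tog j S) = tog j (tog i S) := by
  by_cases hij : i = j
  · rw [hij]
  ext a
  simp only [mem_tog]
  by_cases h1 : a = i
  · subst h1
    simp [hij]
  · by_cases h2 : a = j
    · subst h2
      simp [h1, Ne.symm h1]
    · simp [h1, h2]

/-- The Jordan--Wigner sign. -/
def sgn (i : Fin n) (S : Finset (Fin n)) : ZMod 3 := (-1) ^ (S.filter (· < i)).card

/-- The local sign. -/
def sv (i : Fin n) (S : Finset (Fin n)) : ZMod 3 := if i ∈ S then 1 else -1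

lemma sgn_sq (i : Fin n) (S : Finset (Fin n)) : sgn i S * sgn i S = 1 := by
  unfold sgn
  rw [← mul_pow]
  simp

lemma sv_sq (i : Fin n) (S : Finset (Fin n)) : sv i S * sv i S = 1 := by
  unfold sv
  split_ifs <;> decide

lemma sgn_tog_of_not_lt {i j : Fin n} (h : ¬ i < j) (S : Finset (Fin n)) : sgn j (tog i S) = sgn j S := by
  unfold sgn
  congr 2
  ext a
  simp only [Finset.mem_filter, mem_tog]
  constructor
  · rintro ⟨⟨rfl, -⟩ | ⟨-, h2⟩, h3⟩
    · exact absurd h3 h
    · exact ⟨h2, h3⟩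
  · rintro ⟨h2, h3⟩
    refine ⟨Or.inr ⟨?_, h2⟩, h3⟩
    rintro rfl
    exact h h3

lemma sgn_tog_of_lt {i j : Fin n} (h : i < j) (S : Finset (Fin n)) : sgn j (tog i S) = - sgn j S := by
  unfold sgn
  by_cases hi : i ∈ S
  · have h1 : (tog i S).filter (· < j) = (S.filter (· < j)).erase i := by
      ext a
      simp only [Finset.mem_filter, mem_tog, Finset.mem_erase]
      constructor
      · rintro ⟨⟨rfl, h2⟩ | ⟨h2, h3⟩, h4⟩
        · exact absurd hi h2
        · exact ⟨h2, h3, h4⟩
      · rintro ⟨h2, h3, h4⟩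
        exact ⟨Or.inr ⟨h2, h3⟩, h4⟩
    have hm : i ∈ S.filter (· < j) := Finset.mem_filter.mpr ⟨hi, h⟩
    have h2 : ((S.filter (· < j)).erase i).card + 1 = (S.filter (· < j)).card := Finset.card_erase_add_one hm
    rw [h1, ← h2, pow_succ]
    have h3 : ((-1 : ZMod 3) ^ ((S.filter (· < j)).erase i).card) * ((-1 : ZMod 3) ^ ((S.filter (· < j)).erase i).card) = 1 := by
      rw [← mul_pow]; simp
    ring_nf
  · have h1 : (tog i S).filter (· < j) = insert i (S.filter (· < j)) := by
      ext a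
      simp only [Finset.mem_filter, mem_tog, Finset.mem_insert]
      constructor
      · rintro ⟨⟨rfl, h2⟩ | ⟨h2, h3⟩, h4⟩
        · exact Or.inl rfl
        · exact Or.inr ⟨h3, h4⟩
      · rintro (rfl | ⟨h3, h4⟩)
        · exact ⟨Or.inl ⟨rfl, hi⟩, h⟩
        · refine ⟨Or.inr ⟨?_, h3⟩, h4⟩
          rintro rfl
          exact hi h3
    have hm : i ∉ S.filter (· < j) := fun hh => hi (Finset.mem_filter.mp hh).1
    rw [h1, Finset.card_insert_of_notMem hm, pow_succ]
    ring

lemma sgn_tog_self (i : Fin n) (S : Finset (Fin n)) : sgn i (tog i S) = sgn i S :=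
  sgn_tog_of_not_lt (lt_irrefl i) S

lemma sv_tog_self (i : Fin n) (S : Finset (Fin n)) : sv i (tog i S) = - sv i S := by
  unfold sv
  simp only [mem_tog, true_and]
  by_cases h : i ∈ S
  · simp [h]
  · simp [h]

lemma sv_tog_of_ne {i j : Fin n} (h : i ≠ j) (S : Finset (Fin n)) : sv j (tog i S) = sv j S := by
  unfold sv
  simp only [mem_tog, h.symm, false_and, false_or, ne_eq, not_false_eq_true, true_and]

/-- The generators of the Clifford algebra. -/
def e (i : Fin n) : A n where
  toFun f S := sgn i S * sv i S * f (tog i S)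
  map_add' f g := by
    funext S
    simp only [Pi.add_apply]
    ring
  map_smul' c f := by
    funext S
    simp only [Pi.smul_apply, smul_eq_mul, RingHom.id_apply]
    ring

/-- The opposite generators. -/
def r (i : Fin n) : A n where
  toFun f S := sgn i S * f (tog i S)
  map_add' f g := by
    funext S
    simp only [Pi.add_apply]
    ring
  map_smul' c f := by
    funext S
    simp only [Pi.smul_apply, smul_eq_mul, RingHom.id_apply]
    ring

@[simp] lemma e_apply (i : Fin n) (f : W n) (S : Finset (Fin n)) : e i f S = sgn i S * sv i S * f (tog i S) := rfl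
@[simp] lemma r_apply (i : Fin n) (f : W n) (S : Finset (Fin n)) : r i f S = sgn i S * f (tog i S) := rfl

lemma end_ext {x y : A n} (h : ∀ (f : W n) (S : Finset (Fin n)), x f S = y f S) : x = y :=
  LinearMap.ext fun f => funext fun S => h f S

lemma mul_apply' (x y : A n) (f : W n) (S : Finset (Fin n)) : (x * y) f S = x (y f) S := rfl

lemma e_mul_self (i : Fin n) : e i * e i = -1 := by
  refine end_ext fun f S => ?_
  rw [mul_apply', e_apply, e_apply, tog_tog, sgn_tog_self, sv_tog_self]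
  have h1 := sgn_sq i S
  have h2 := sv_sq i S
  have h3 : (-1 : A n) f S = - f S := rfl
  rw [h3]
  linear_combination (- sv i S * sv i S * f S) * h1 - f S * h2

lemma e_anti_of_lt {i j : Fin n} (h : i < j) : e i * e j = - (e j * e i) := by
  refine end_ext fun f S => ?_
  have h3 : ∀ z : A n, (- z) f S = - z f S := fun _ => rfl
  rw [h3, mul_apply', mul_apply', e_apply, e_apply, e_apply, e_apply, tog_comm j i,
    sgn_tog_of_lt h, sv_tog_of_ne h.ne, sgn_tog_of_not_lt (not_lt.mpr h.le), sv_tog_of_ne h.ne']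
  ring

lemma e_anti {i j : Fin n} (h : i ≠ j) : e i * e j = - (e j * e i) := by
  rcases lt_or_gt_of_ne h with h1 | h1
  · exact e_anti_of_lt h1
  · rw [e_anti_of_lt h1, neg_neg]

lemma e_r_anti_of_lt {i j : Fin n} (h : i < j) : e i * r j = - (r j * e i) := by
  refine end_ext fun f S => ?_
  have h3 : ∀ z : A n, (- z) f S = - z f S := fun _ => rfl
  rw [h3, mul_apply', mul_apply', e_apply, r_apply, r_apply, e_apply, tog_comm j i,
    sgn_tog_of_lt h, sgn_tog_of_not_lt (not_lt.mpr h.le), sv_tog_of_ne h.ne']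
  ring

lemma e_r_anti_of_gt {i j : Fin n} (h : j < i) : e i * r j = - (r j * e i) := by
  refine end_ext fun f S => ?_
  have h3 : ∀ z : A n, (- z) f S = - z f S := fun _ => rfl
  rw [h3, mul_apply', mul_apply', e_apply, r_apply, r_apply, e_apply, tog_comm j i,
    sgn_tog_of_lt h, sgn_tog_of_not_lt (not_lt.mpr h.le), sv_tog_of_ne h.ne]
  ring

lemma e_r_anti_self (i : Fin n) : e i * r i = - (r i * e i) := by
  refine end_ext fun f S => ?_
  have h3 : ∀ z : A n, (- z) f S = - z f S := fun _ => rfl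
  rw [h3, mul_apply', mul_apply', e_apply, r_apply, r_apply, e_apply, tog_tog, sgn_tog_self, sv_tog_self]
  ring

lemma e_r_anti (i j : Fin n) : e i * r j = - (r j * e i) := by
  rcases lt_trichotomy i j with h | rfl | h
  · exact e_r_anti_of_lt h
  · exact e_r_anti_self i
  · exact e_r_anti_of_gt h

lemma e_r_apply (i : Fin n) (f : W n) (S : Finset (Fin n)) : (e i * r i) f S = sv i S * f S := by
  rw [mul_apply', e_apply, r_apply, tog_tog, sgn_tog_self]
  have h1 := sgn_sq i S
  linear_combination (sv i S * f S) * h1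

lemma three_eq_zero : (3 : A n) = 0 := by
  refine end_ext fun f S => ?_
  have h1 : (3 : A n) = ((3 : ℕ) : A n) := by norm_cast
  rw [h1]
  show (((3 : ℕ) : A n) f) S = 0
  rw [Module.End.natCast_apply]
  show (3 : ℕ) • f S = 0
  rw [nsmul_eq_mul]
  have : ((3 : ℕ) : ZMod 3) = 0 := by decide
  rw [this, zero_mul]

section Abs

variable {R : Type*} [Ring R]

lemma tsq (h3 : (3 : R) = 0) {a b : R} (ha : a * a = -1) (hb : b * b = -1) (hab : a * b = - (b * a)) :
    (a - b) * (a - b) = 1 := by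
  have h : (a - b) * (a - b) = a * a + b * b - (a * b + b * a) := by noncomm_ring
  rw [h, ha, hb, hab]
  have h4 : (-1 : R) + -1 - (-(b * a) + b * a) = 1 - 3 := by
    have : (3 : R) = 1 + 1 + 1 := by norm_num
    rw [this]
    noncomm_ring
  rw [h4, h3, sub_zero]

lemma tconj_left (h3 : (3 : R) = 0) {a b : R} (ha : a * a = -1) (hb : b * b = -1) (hab : a * b = - (b * a)) :
    (a - b) * a * (a - b) = - b := by
  have h : (a - b) * a * (a - b) = (a * a) * a - (a * a) * b - b * (a * a) + b * (a * b) := by noncomm_ring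
  rw [h, ha, hab]
  have h5 : b * (-(b * a)) = - ((b * b) * a) := by noncomm_ring
  rw [h5, hb]
  have h4 : (-1 : R) * a - (-1) * b - b * (-1) + - ((-1) * a) = - b + 3 * b := by
    have : (3 : R) = 1 + 1 + 1 := by norm_num
    rw [this]
    noncomm_ring
  rw [h4, h3, zero_mul, add_zero]

lemma tconj_right (h3 : (3 : R) = 0) {a b : R} (ha : a * a = -1) (hb : b * b = -1) (hab : a * b = - (b * a)) :
    (a - b) * b * (a - b) = - a := by
  have h := tconj_left h3 hb ha (by rw [hab, neg_neg])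
  have h2 : a - b = - (b - a) := by abel
  rw [h2, neg_mul, neg_mul, mul_neg, neg_neg]
  exact h

lemma tconj_other {a b c : R} (hac : a * c = - (c * a)) (hbc : b * c = - (c * b)) :
    (a - b) * c = - (c * (a - b)) := by
  have h : (a - b) * c = a * c - b * c := by noncomm_ring
  rw [h, hac, hbc]
  noncomm_ring

lemma abs_conj {x c : R} (hx : x * x = 1) (h : x * c = - (c * x)) : x * c * x = - c := by
  rw [h, neg_mul, mul_assoc, hx, mul_one]

lemma abs_comm {x y c : R} (hx : x * c = - (c * x)) (hy : y * c = - (c * y)) : x * y * c = c * (x * y) := by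
  rw [mul_assoc, hy, mul_neg, ← mul_assoc, hx, neg_mul, neg_neg, mul_assoc]

lemma abs_two {x y c d d' : R} (h1 : y * c * y = - d) (h2 : x * d * x = - d') :
    x * y * c * (y * x) = d' := by
  have h : x * y * c * (y * x) = x * (y * c * y) * x := by noncomm_ring
  rw [h, h1, mul_neg, neg_mul, h2, neg_neg]

end Abs

lemma e_injective : Function.Injective (e : Fin n → A n) := by
  intro i j h
  by_contra hij
  have h1 := e_anti hij
  rw [h, e_mul_self] at h1
  have h2 : (-1 : A n) = 1 := by simpa using h1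
  have h3 : (-1 : A n) (fun _ => 1) ∅ = (1 : A n) (fun _ => 1) ∅ := by rw [h2]
  have h4 : (-1 : ZMod 3) = 1 := h3
  exact absurd h4 (by decide)

/-- The lifted transposition. -/
def t (i j : Fin n) : A n := e i - e j

lemma t_sq {i j : Fin n} (h : i ≠ j) : t i j * t i j = 1 :=
  tsq three_eq_zero (e_mul_self i) (e_mul_self j) (e_anti h)

/-- The lifted transposition as a unit. -/
def T (i j : Fin n) (h : i ≠ j) : (A n)ˣ := ⟨t i j, t i j, t_sq h, t_sq h⟩

@[simp] lemma T_val (i j : Fin n) (h : i ≠ j) : ((T i j h : (A n)ˣ) : A n) = t i j := rfl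
@[simp] lemma T_inv_val (i j : Fin n) (h : i ≠ j) : (((T i j h)⁻¹ : (A n)ˣ) : A n) = t i j := rfl

/-- Conjugation by a lifted transposition. -/
lemma t_conj {i j : Fin n} (h : i ≠ j) (m : Fin n) : t i j * e m * t i j = - e (Equiv.swap i j m) := by
  by_cases h1 : m = i
  · subst h1
    rw [Equiv.swap_apply_left]
    exact tconj_left three_eq_zero (e_mul_self _) (e_mul_self _) (e_anti h)
  · by_cases h2 : m = j
    · subst h2
      rw [Equiv.swap_apply_right]
      exact tconj_right three_eq_zero (e_mul_self _) (e_mul_self _) (e_anti h)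
    · rw [Equiv.swap_apply_of_ne_of_ne h1 h2]
      have h3 : t i j * e m = - (e m * t i j) :=
        tconj_other (e_anti (Ne.symm h1)) (e_anti (Ne.symm h2))
      exact abs_conj (t_sq h) h3

lemma t_r_comm {i j k l : Fin n} (m : Fin n) : t i j * t k l * r m = r m * (t i j * t k l) := by
  have h1 : ∀ p q : Fin n, t p q * r m = - (r m * t p q) := fun p q =>
    tconj_other (e_r_anti p m) (e_r_anti q m)
  exact abs_comm (h1 i j) (h1 k l)

/-- The generating set. -/
def gens (n : ℕ) : Set (A n)ˣ :=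
  {g | ∃ (i j k : Fin n) (hij : i ≠ j) (hjk : j ≠ k) (hik : i ≠ k), g = T i j hij * T j k hjk}

/-- The group. -/
def Gam (n : ℕ) : Subgroup (A n)ˣ := Subgroup.closure (gens n)

/-- The properties of the elements of the group. -/
lemma Gam_spec {g : (A n)ˣ} (hg : g ∈ Gam n) :
    (∃ π : Equiv.Perm (Fin n), π ∈ alternatingGroup (Fin n) ∧
      ∀ m, (g : A n) * e m * ((g⁻¹ : (A n)ˣ) : A n) = e (π m)) ∧
    ∀ m, (g : A n) * r m = r m * (g : A n) := by
  induction hg using Subgroup.closure_induction with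
  | mem x hx =>
    obtain ⟨i, j, k, hij, hjk, hik, rfl⟩ := hx
    refine ⟨⟨Equiv.swap i j * Equiv.swap j k, ?_, fun m => ?_⟩, fun m => t_r_comm m⟩
    · have h1 : Equiv.swap i j = Equiv.swap j i := Equiv.swap_comm i j
      rw [h1]
      exact (Equiv.Perm.isThreeCycle_swap_mul_swap_same hij.symm hjk hik).mem_alternatingGroup
    · rw [mul_inv_rev, Units.val_mul, Units.val_mul, T_val, T_val, T_inv_val, T_inv_val]
      exact abs_two (t_conj hjk m) (t_conj hij _)
  | one =>
    refine ⟨⟨1, Subgroup.one_mem _, fun m => ?_⟩, fun m => ?_⟩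
    · simp
    · simp
  | mul x y _ _ hx hy =>
    obtain ⟨⟨π₁, hπ₁, h₁⟩, h₁'⟩ := hx
    obtain ⟨⟨π₂, hπ₂, h₂⟩, h₂'⟩ := hy
    refine ⟨⟨π₁ * π₂, Subgroup.mul_mem _ hπ₁ hπ₂, fun m => ?_⟩, fun m => ?_⟩
    · rw [mul_inv_rev, Units.val_mul, Units.val_mul]
      have h2 : (x : A n) * y * e m * (((y⁻¹ : (A n)ˣ) : A n) * ((x⁻¹ : (A n)ˣ) : A n)) =
          x * (y * e m * ((y⁻¹ : (A n)ˣ) : A n)) * ((x⁻¹ : (A n)ˣ) : A n) := by noncomm_ring
      rw [h2, h₂, h₁]
      rfl
    · rw [Units.val_mul, mul_assoc, h₂', ← mul_assoc, h₁', mul_assoc]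
  | inv x _ hx =>
    obtain ⟨⟨π₁, hπ₁, h₁⟩, h₁'⟩ := hx
    refine ⟨⟨π₁⁻¹, Subgroup.inv_mem _ hπ₁, fun m => ?_⟩, fun m => ?_⟩
    · have h2 := h₁ (π₁⁻¹ m)
      have h5 : π₁ (π₁⁻¹ m) = m := by simp
      rw [h5] at h2
      rw [inv_inv, ← h2]
      have h3 : ((x⁻¹ : (A n)ˣ) : A n) * x = 1 := Units.inv_mul x
      calc ((x⁻¹ : (A n)ˣ) : A n) * ((x : A n) * e (π₁⁻¹ m) * ((x⁻¹ : (A n)ˣ) : A n)) * x
          = (((x⁻¹ : (A n)ˣ) : A n) * x) * e (π₁⁻¹ m) * (((x⁻¹ : (A n)ˣ) : A n) * x) := by noncomm_ring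
        _ = e (π₁⁻¹ m) := by rw [h3]; simp
    · have h3 : ((x⁻¹ : (A n)ˣ) : A n) * x = 1 := Units.inv_mul x
      have h4 : (x : A n) * ((x⁻¹ : (A n)ˣ) : A n) = 1 := Units.mul_inv x
      calc ((x⁻¹ : (A n)ˣ) : A n) * r m
          = ((x⁻¹ : (A n)ˣ) : A n) * (r m * ((x : A n) * ((x⁻¹ : (A n)ˣ) : A n))) := by rw [h4, mul_one]
        _ = ((x⁻¹ : (A n)ˣ) : A n) * (((x : A n) * r m) * ((x⁻¹ : (A n)ˣ) : A n)) := by
            rw [h₁' m, mul_assoc]
        _ = (((x⁻¹ : (A n)ˣ) : A n) * x) * r m * ((x⁻¹ : (A n)ˣ) : A n) := by noncomm_ring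
        _ = r m * ((x⁻¹ : (A n)ˣ) : A n) := by rw [h3, one_mul]

/-! ### The kernel -/

/-- The basis vector. -/
def delta (S : Finset (Fin n)) : W n := Pi.single S 1

lemma delta_apply (S T : Finset (Fin n)) : delta S T = if T = S then 1 else 0 := by
  unfold delta
  rw [Pi.single_apply]

lemma e_r_delta (m : Fin n) (S : Finset (Fin n)) : (e m * r m) (delta S) = sv m S • delta S := by
  funext T
  rw [e_r_apply, Pi.smul_apply, delta_apply, smul_eq_mul]
  by_cases h : T = S
  · rw [h]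
  · simp [h]

lemma e_delta (m : Fin n) (S : Finset (Fin n)) :
    e m (delta S) = (sgn m (tog m S) * sv m (tog m S)) • delta (tog m S) := by
  funext T
  rw [e_apply, Pi.smul_apply, delta_apply, delta_apply, smul_eq_mul]
  by_cases h : T = tog m S
  · subst h
    simp [tog_tog]
  · have h2 : tog m T ≠ S := by
      intro h3
      apply h
      rw [← h3, tog_tog]
    simp [h, h2]

lemma sv_ne {m : Fin n} {S T : Finset (Fin n)} (h : ¬ (m ∈ S ↔ m ∈ T)) : sv m S - sv m T ≠ 0 := by
  unfold sv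
  by_cases h1 : m ∈ S <;> by_cases h2 : m ∈ T <;> simp only [h1, h2, if_true, if_false]
  · exact absurd (by simp [h1, h2]) h
  · decide
  · decide
  · exact absurd (by simp [h1, h2]) h

lemma scalar_of_comm {G : A n} (h1 : ∀ m, G * e m = e m * G) (h2 : ∀ m, G * r m = r m * G) :
    ∃ c : ZMod 3, G = c • (1 : A n) := by
  classical
  haveI : Fact (Nat.Prime 3) := ⟨by norm_num⟩
  have h3 : ∀ m, G * (e m * r m) = (e m * r m) * G := by
    intro m
    rw [← mul_assoc, h1, mul_assoc, h2, mul_assoc]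
  have hdiag : ∀ S T : Finset (Fin n), T ≠ S → G (delta S) T = 0 := by
    intro S T hST
    have hex : ∃ m, ¬ (m ∈ S ↔ m ∈ T) := by
      by_contra hcon
      push Not at hcon
      exact hST (Finset.ext fun a => (hcon a).symm)
    obtain ⟨m, hm⟩ := hex
    have h4' : (G * (e m * r m)) (delta S) = (e m * r m * G) (delta S) := by rw [h3 m]
    have h4 := congrFun h4' T
    rw [mul_apply', mul_apply', e_r_apply, e_r_delta, map_smul, Pi.smul_apply, smul_eq_mul] at h4
    have h5 : (sv m S - sv m T) * G (delta S) T = 0 := by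
      linear_combination h4
    rcases mul_eq_zero.mp h5 with h6 | h6
    · exact absurd h6 (sv_ne hm)
    · exact h6
  let c : Finset (Fin n) → ZMod 3 := fun S => G (delta S) S
  have hc : ∀ S, G (delta S) = c S • delta S := by
    intro S
    funext T
    rw [Pi.smul_apply, delta_apply, smul_eq_mul]
    by_cases h : T = S
    · subst h
      simp [c]
    · simp [h, hdiag S T h]
  have hkappa : ∀ (m : Fin n) (S : Finset (Fin n)), (sgn m S * sv m S) * (sgn m S * sv m S) = 1 := by
    intro m S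
    have h4 := sgn_sq m S
    have h5 := sv_sq m S
    linear_combination (sv m S * sv m S) * h4 + h5
  have hstep : ∀ (m : Fin n) (S : Finset (Fin n)), c (tog m S) = c S := by
    intro m S
    have h4 : (G * e m) (delta S) = (e m * G) (delta S) := by rw [h1 m]
    rw [Module.End.mul_apply, Module.End.mul_apply, e_delta, map_smul, hc, hc, map_smul, e_delta] at h4
    have h5 := congrFun h4 (tog m S)
    simp only [Pi.smul_apply, smul_eq_mul, delta_apply, if_true, mul_one] at h5
    have h6 := hkappa m (tog m S)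
    linear_combination (sgn m (tog m S) * sv m (tog m S)) * h5 - (c (tog m S) - c S) * h6
  have hconst : ∀ S, c S = c ∅ := by
    intro S
    induction S using Finset.induction_on with
    | empty => rfl
    | insert i S hi ih =>
      have h4 : insert i S = tog i S := by
        unfold tog
        rw [if_neg hi]
      rw [h4, hstep, ih]
  refine ⟨c ∅, LinearMap.pi_ext fun S x => ?_⟩
  have h4 : (Pi.single S x : W n) = x • delta S := by
    funext T
    rw [Pi.smul_apply, delta_apply, Pi.single_apply, smul_eq_mul]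
    by_cases h : T = S <;> simp [h]
  rw [h4, map_smul, hc, hconst S]
  have h5 : (c ∅ • (1 : A n)) (x • delta S) = c ∅ • (x • delta S) := rfl
  rw [h5, smul_comm]

lemma W_nontrivial_neg : (-1 : A n) ≠ 1 := by
  intro h2
  have h3 : (-1 : A n) (fun _ => 1) ∅ = (1 : A n) (fun _ => 1) ∅ := by rw [h2]
  have h4 : (-1 : ZMod 3) = 1 := h3
  exact absurd h4 (by decide)

lemma zero_ne_one_A : (0 : A n) ≠ 1 := by
  intro h2
  have h3 : (0 : A n) (fun _ => 1) ∅ = (1 : A n) (fun _ => 1) ∅ := by rw [h2]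
  have h4 : (0 : ZMod 3) = 1 := h3
  exact absurd h4 (by decide)

/-- An element of the group acting trivially on the generators is `1` or `-1`. -/
lemma eq_one_or_neg {g : (A n)ˣ} (hg : g ∈ Gam n) (h : ∀ m, (g : A n) * e m = e m * (g : A n)) :
    g = 1 ∨ g = -1 := by
  obtain ⟨c, hc⟩ := scalar_of_comm h (Gam_spec hg).2
  have hall : ∀ x : ZMod 3, x = 0 ∨ x = 1 ∨ x = -1 := by decide
  have hc3 : c = 0 ∨ c = 1 ∨ c = -1 := hall c
  rcases hc3 with rfl | rfl | rfl
  · exfalso
    have h4 : (g : A n) * ((g⁻¹ : (A n)ˣ) : A n) = 1 := Units.mul_inv g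
    rw [hc, zero_smul, zero_mul] at h4
    exact zero_ne_one_A h4
  · left
    apply Units.ext
    rw [hc, one_smul]
    rfl
  · right
    apply Units.ext
    rw [hc]
    refine end_ext fun f S => ?_
    show (-1 : ZMod 3) * f S = - f S
    ring

/-! ### The homomorphism onto the alternating group -/

lemma perm_unique {g : (A n)ˣ} {π π' : Equiv.Perm (Fin n)}
    (h : ∀ m, (g : A n) * e m * ((g⁻¹ : (A n)ˣ) : A n) = e (π m))
    (h' : ∀ m, (g : A n) * e m * ((g⁻¹ : (A n)ˣ) : A n) = e (π' m)) : π = π' := by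
  ext m
  have := (h m).symm.trans (h' m)
  rw [e_injective this]

/-- The permutation of a group element. -/
noncomputable def permOf (g : Gam n) : Equiv.Perm (Fin n) := Classical.choose (Gam_spec g.2).1

lemma permOf_mem (g : Gam n) : permOf g ∈ alternatingGroup (Fin n) :=
  (Classical.choose_spec (Gam_spec g.2).1).1

lemma permOf_spec (g : Gam n) (m : Fin n) :
    (((g : (A n)ˣ)) : A n) * e m * (((g : (A n)ˣ)⁻¹ : (A n)ˣ) : A n) = e (permOf g m) :=
  (Classical.choose_spec (Gam_spec g.2).1).2 m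

lemma permOf_eq (g : Gam n) {π : Equiv.Perm (Fin n)}
    (h : ∀ m, (((g : (A n)ˣ)) : A n) * e m * (((g : (A n)ˣ)⁻¹ : (A n)ˣ) : A n) = e (π m)) : permOf g = π :=
  perm_unique (permOf_spec g) h

/-- The homomorphism. -/
noncomputable def psi (n : ℕ) : Gam n →* alternatingGroup (Fin n) :=
  MonoidHom.mk' (fun g => ⟨permOf g, permOf_mem g⟩) (by
    intro x y
    apply Subtype.ext
    show permOf (x * y) = permOf x * permOf y
    apply permOf_eq
    intro m
    show ((((x : (A n)ˣ) * (y : (A n)ˣ) : (A n)ˣ)) : A n) * e m * ((((x : (A n)ˣ) * (y : (A n)ˣ))⁻¹ : (A n)ˣ) : A n) = _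
    rw [mul_inv_rev, Units.val_mul, Units.val_mul]
    have h2 := permOf_spec y m
    have h1 := permOf_spec x (permOf y m)
    calc ((x : (A n)ˣ) : A n) * ((y : (A n)ˣ) : A n) * e m * (((((y : (A n)ˣ)⁻¹ : (A n)ˣ) : A n)) * (((x : (A n)ˣ)⁻¹ : (A n)ˣ) : A n))
        = ((x : (A n)ˣ) : A n) * (((y : (A n)ˣ) : A n) * e m * (((y : (A n)ˣ)⁻¹ : (A n)ˣ) : A n)) * (((x : (A n)ˣ)⁻¹ : (A n)ˣ) : A n) := by
          noncomm_ring
      _ = e (permOf x (permOf y m)) := by rw [h2, h1]
      _ = e ((permOf x * permOf y) m) := rfl)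

lemma psi_coe (g : Gam n) : ((psi n g : alternatingGroup (Fin n)) : Equiv.Perm (Fin n)) = permOf g := rfl

lemma psi_surjective : Function.Surjective (psi n) := by
  classical
  have hle : Subgroup.closure {σ : Equiv.Perm (Fin n) | σ.IsThreeCycle} ≤
      (psi n).range.map (alternatingGroup (Fin n)).subtype := by
    rw [Subgroup.closure_le]
    intro σ hσ
    have hσ' : σ.IsThreeCycle := hσ
    have hne : σ ≠ 1 := hσ'.ne_one
    obtain ⟨a, ha⟩ : ∃ a, σ a ≠ a := by
      by_contra hcon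
      push Not at hcon
      exact hne (Equiv.ext hcon)
    have hsup : a ∈ σ.support := Equiv.Perm.mem_support.mpr ha
    have heq := hσ'.eq_swap_mul_swap_iff_mem_support.mpr hsup
    have hnd := hσ'.nodup_iff_mem_support.mpr hsup
    simp only [List.nodup_cons, List.mem_cons, List.not_mem_nil, or_false, not_or, List.nodup_nil, and_true] at hnd
    obtain ⟨⟨h1, h2⟩, h3, -⟩ := hnd
    let g : (A n)ˣ := T a (σ a) h1 * T (σ a) (σ (σ a)) h3
    have hg : g ∈ Gam n := Subgroup.subset_closure ⟨_, _, _, h1, h3, h2, rfl⟩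
    have hperm : permOf ⟨g, hg⟩ = σ := by
      apply permOf_eq
      intro m
      show ((g : (A n)ˣ) : A n) * e m * ((g⁻¹ : (A n)ˣ) : A n) = _
      rw [mul_inv_rev, Units.val_mul, Units.val_mul, T_val, T_val, T_inv_val, T_inv_val]
      have h5 : σ m = (Equiv.swap a (σ a)) ((Equiv.swap (σ a) (σ (σ a))) m) := by
        conv_lhs => rw [heq]
        rfl
      rw [h5]
      exact abs_two (t_conj h3 m) (t_conj h1 _)
    exact ⟨psi n ⟨g, hg⟩, ⟨⟨g, hg⟩, rfl⟩, hperm⟩
  rw [Equiv.Perm.closure_three_cycles_eq_alternating] at hle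
  intro σ
  obtain ⟨x, ⟨g, rfl⟩, hx⟩ := hle σ.2
  exact ⟨g, Subtype.ext hx⟩

/-- The central element. -/
lemma T_mul_self (i j : Fin n) (h : i ≠ j) : T i j h * T i j h = 1 := by
  apply Units.ext
  exact t_sq h

section Abs2

variable {R : Type*} [Ring R]

lemma abs_sub {x y p q p' q' : R} (h1 : x * p * y = p') (h2 : x * q * y = q') :
    x * (p - q) * y = p' - q' := by
  rw [mul_sub, sub_mul, h1, h2]

lemma abs_anti_sub {x p q : R} (h1 : x * p = -(p * x)) (h2 : x * q = -(q * x)) :
    x * (p - q) = -((p - q) * x) := by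
  rw [mul_sub, sub_mul, h1, h2]
  abel

lemma abs_commutator {a a' x y : R} (h1 : a' * a = 1) (hx : a * x * a' = y) (hy : a * y * a' = x)
    (hanti : y * x = -(x * y)) : a * (x * y) * a' = -(x * y) := by
  have h : a * (x * y) * a' = (a * x * a') * (a * y * a') := by
    calc a * (x * y) * a' = a * x * 1 * y * a' := by noncomm_ring
      _ = a * x * (a' * a) * y * a' := by rw [h1]
      _ = (a * x * a') * (a * y * a') := by noncomm_ring
  rw [h, hx, hy, hanti]

lemma abs_unit_neg_comm (g : Rˣ) : g * (-1) = (-1) * g := by simp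

lemma abs_unit_neg_sq : (-1 : Rˣ) ^ 2 = 1 := by simp

lemma abs_unit_neg_inv : (-1 : Rˣ)⁻¹ = -1 := by simp

lemma abs_neg_conj (x : R) : (-1 : R) * x * (-1) = x := by
  noncomm_ring

lemma abs_final {p x y : R} (h1 : p = -(x * y)) (hx : x * x = 1) (hy : y * y = 1) :
    p * (y * x) = -1 := by
  have h2 : x * y * (y * x) = 1 := by
    calc x * y * (y * x) = x * (y * y) * x := by noncomm_ring
      _ = 1 := by rw [hy, mul_one, hx]
  rw [h1, neg_mul, h2]

end Abs2

section Central

variable (hn : 4 ≤ n)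

include hn

/-- The lift of the Klein group gives the central element. -/
lemma exists_comm_neg : ∃ a b : (A n)ˣ, a ∈ Gam n ∧ b ∈ Gam n ∧ a * b * a⁻¹ * b⁻¹ = -1 := by
  classical
  let i0 : Fin n := ⟨0, by omega⟩
  let i1 : Fin n := ⟨1, by omega⟩
  let i2 : Fin n := ⟨2, by omega⟩
  let i3 : Fin n := ⟨3, by omega⟩
  have h01 : i0 ≠ i1 := by simp [i0, i1, Fin.ext_iff]
  have h02 : i0 ≠ i2 := by simp [i0, i2, Fin.ext_iff]
  have h03 : i0 ≠ i3 := by simp [i0, i3, Fin.ext_iff]
  have h12 : i1 ≠ i2 := by simp [i1, i2, Fin.ext_iff]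
  have h13 : i1 ≠ i3 := by simp [i1, i3, Fin.ext_iff]
  have h23 : i2 ≠ i3 := by simp [i2, i3, Fin.ext_iff]
  let a : (A n)ˣ := T i0 i1 h01 * T i2 i3 h23
  let b : (A n)ˣ := T i0 i2 h02 * T i1 i3 h13
  have ha : a ∈ Gam n := by
    have h1 : a = (T i0 i1 h01 * T i1 i2 h12) * (T i1 i2 h12 * T i2 i3 h23) := by
      show T i0 i1 h01 * T i2 i3 h23 = _
      rw [mul_assoc, ← mul_assoc (T i1 i2 h12), T_mul_self, one_mul]
    rw [h1]
    exact Subgroup.mul_mem _ (Subgroup.subset_closure ⟨_, _, _, h01, h12, h02, rfl⟩)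
      (Subgroup.subset_closure ⟨_, _, _, h12, h23, h13, rfl⟩)
  have hb : b ∈ Gam n := by
    have h1 : b = (T i0 i2 h02 * T i2 i1 h12.symm) * (T i2 i1 h12.symm * T i1 i3 h13) := by
      show T i0 i2 h02 * T i1 i3 h13 = _
      rw [mul_assoc, ← mul_assoc (T i2 i1 h12.symm), T_mul_self, one_mul]
    rw [h1]
    exact Subgroup.mul_mem _ (Subgroup.subset_closure ⟨_, _, _, h02, h12.symm, h01, rfl⟩)
      (Subgroup.subset_closure ⟨_, _, _, h12.symm, h13, h23, rfl⟩)
  refine ⟨a, b, ha, hb, ?_⟩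
  -- conjugation by `a`
  have hconj : ∀ m : Fin n, t i0 i1 * t i2 i3 * e m * (t i2 i3 * t i0 i1) =
      e ((Equiv.swap i0 i1) ((Equiv.swap i2 i3) m)) := fun m => abs_two (t_conj h23 m) (t_conj h01 _)
  have e0 : (Equiv.swap i0 i1) ((Equiv.swap i2 i3) i0) = i1 := by
    rw [Equiv.swap_apply_of_ne_of_ne h02 h03, Equiv.swap_apply_left]
  have e1 : (Equiv.swap i0 i1) ((Equiv.swap i2 i3) i1) = i0 := by
    rw [Equiv.swap_apply_of_ne_of_ne h12 h13, Equiv.swap_apply_right]
  have e2 : (Equiv.swap i0 i1) ((Equiv.swap i2 i3) i2) = i3 := by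
    rw [Equiv.swap_apply_left, Equiv.swap_apply_of_ne_of_ne h03.symm h13.symm]
  have e3 : (Equiv.swap i0 i1) ((Equiv.swap i2 i3) i3) = i2 := by
    rw [Equiv.swap_apply_right, Equiv.swap_apply_of_ne_of_ne h02.symm h12.symm]
  have hx : ∀ p q r' s' : Fin n, (Equiv.swap i0 i1) ((Equiv.swap i2 i3) p) = r' →
      (Equiv.swap i0 i1) ((Equiv.swap i2 i3) q) = s' →
      t i0 i1 * t i2 i3 * t p q * (t i2 i3 * t i0 i1) = t r' s' := by
    intro p q r' s' hp hq
    have h1 := hconj p
    have h2 := hconj q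
    rw [hp] at h1
    rw [hq] at h2
    exact abs_sub h1 h2
  have hxy := hx i0 i2 i1 i3 e0 e2
  have hyx := hx i1 i3 i0 i2 e1 e3
  have hanti : t i1 i3 * t i0 i2 = - (t i0 i2 * t i1 i3) := by
    have h1 : t i1 i3 * e i0 = - (e i0 * t i1 i3) := tconj_other (e_anti h01.symm) (e_anti h03.symm)
    have h2 : t i1 i3 * e i2 = - (e i2 * t i1 i3) := tconj_other (e_anti h12) (e_anti h23.symm)
    exact abs_anti_sub h1 h2
  have hinv : (t i2 i3 * t i0 i1) * (t i0 i1 * t i2 i3) = 1 := by
    have h5 : ((a⁻¹ * a : (A n)ˣ) : A n) = 1 := by rw [inv_mul_cancel]; rfl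
    exact h5
  have hcomm := abs_commutator hinv hxy hyx hanti
  apply Units.ext
  have hfin := abs_final hcomm (t_sq h02) (t_sq h13)
  exact hfin

end Central

open scoped commutatorElement in
/-- The central element of the group. -/
noncomputable def zz (hn : 4 ≤ n) : Gam n :=
  ⟨-1, by
    obtain ⟨a, b, ha, hb, h⟩ := exists_comm_neg hn
    rw [← h]
    exact Subgroup.mul_mem _ (Subgroup.mul_mem _ (Subgroup.mul_mem _ ha hb) (Subgroup.inv_mem _ ha))
      (Subgroup.inv_mem _ hb)⟩

lemma zz_coe (hn : 4 ≤ n) : ((zz hn : Gam n) : (A n)ˣ) = -1 := rfl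

lemma zz_central (hn : 4 ≤ n) : zz hn ∈ Subgroup.center (Gam n) := by
  rw [Subgroup.mem_center_iff]
  intro g
  apply Subtype.ext
  exact abs_unit_neg_comm (g : (A n)ˣ)

lemma zz_ne_one (hn : 4 ≤ n) : zz hn ≠ 1 := by
  intro h
  have h1 : ((zz hn : Gam n) : (A n)ˣ) = 1 := by rw [h]; rfl
  rw [zz_coe] at h1
  have h2 : (((-1 : (A n)ˣ)) : A n) = 1 := by rw [h1]; rfl
  exact W_nontrivial_neg (by simpa using h2)

lemma zz_sq (hn : 4 ≤ n) : zz hn ^ 2 = 1 := by
  apply Subtype.ext
  exact abs_unit_neg_sq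

lemma zz_order (hn : 4 ≤ n) : orderOf (zz hn) = 2 :=
  orderOf_eq_prime (zz_sq hn) (zz_ne_one hn)

open scoped commutatorElement in
lemma zz_commutator (hn : 4 ≤ n) : zz hn ∈ commutator (Gam n) := by
  obtain ⟨a, b, ha, hb, h⟩ := exists_comm_neg hn
  have h1 : zz hn = ⁅(⟨a, ha⟩ : Gam n), (⟨b, hb⟩ : Gam n)⁆ := by
    apply Subtype.ext
    rw [zz_coe]
    show (-1 : (A n)ˣ) = a * b * a⁻¹ * b⁻¹
    rw [h]
  rw [h1]
  exact Subgroup.commutator_mem_commutator (Subgroup.mem_top _) (Subgroup.mem_top _)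

lemma zz_normal (hn : 4 ≤ n) : (Subgroup.zpowers (zz hn)).Normal := by
  refine ⟨fun x hx g => ?_⟩
  obtain ⟨k, rfl⟩ := Subgroup.mem_zpowers_iff.mp hx
  have hc := Subgroup.mem_center_iff.mp (zz_central hn) g
  have h2 : g * zz hn ^ k * g⁻¹ = zz hn ^ k := by
    have h3 : Commute g (zz hn) := hc
    rw [(h3.zpow_right k).eq, mul_assoc, mul_inv_cancel, mul_one]
  rw [h2]
  exact Subgroup.mem_zpowers_iff.mpr ⟨k, rfl⟩

lemma ker_psi (hn : 4 ≤ n) : (psi n).ker = Subgroup.zpowers (zz hn) := by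
  ext g
  rw [MonoidHom.mem_ker]
  constructor
  · intro h
    have h1 : permOf g = 1 := by
      have := congrArg (fun x : alternatingGroup (Fin n) => (x : Equiv.Perm (Fin n))) h
      exact this
    have h2 : ∀ m, (((g : Gam n) : (A n)ˣ) : A n) * e m = e m * (((g : Gam n) : (A n)ˣ) : A n) := by
      intro m
      have h3 := permOf_spec g m
      rw [h1] at h3
      have h4 : e ((1 : Equiv.Perm (Fin n)) m) = e m := rfl
      rw [h4] at h3
      calc (((g : Gam n) : (A n)ˣ) : A n) * e m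
          = (((g : Gam n) : (A n)ˣ) : A n) * e m * ((((g : Gam n) : (A n)ˣ)⁻¹ * ((g : Gam n) : (A n)ˣ) : (A n)ˣ) : A n) := by
            rw [inv_mul_cancel]
            exact (mul_one _).symm
        _ = (((g : Gam n) : (A n)ˣ) : A n) * e m * ((((g : Gam n) : (A n)ˣ)⁻¹ : (A n)ˣ) : A n) * (((g : Gam n) : (A n)ˣ) : A n) := by
            rw [Units.val_mul]
            exact (mul_assoc _ _ _).symm
        _ = e m * (((g : Gam n) : (A n)ˣ) : A n) := by rw [h3]
    rcases eq_one_or_neg g.2 h2 with h5 | h5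
    · have : g = 1 := Subtype.ext h5
      rw [this]
      exact Subgroup.one_mem _
    · have : g = zz hn := Subtype.ext h5
      rw [this]
      exact Subgroup.mem_zpowers _
  · intro h
    have hz : psi n (zz hn) = 1 := by
      apply Subtype.ext
      show permOf (zz hn) = 1
      apply permOf_eq
      intro m
      show (((-1 : (A n)ˣ)) : A n) * e m * (((-1 : (A n)ˣ)⁻¹ : (A n)ˣ) : A n) = e m
      rw [abs_unit_neg_inv]
      have h6 : (((-1 : (A n)ˣ)) : A n) = -1 := rfl
      rw [h6]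
      exact abs_neg_conj (e m)
    obtain ⟨k, rfl⟩ := Subgroup.mem_zpowers_iff.mp h
    rw [map_zpow, hz, one_zpow]

theorem main (hn : 4 ≤ n) : ∃ (Γ : Type) (_ : Group Γ) (_ : Finite Γ) (z : Γ) (hz : z ∈ Subgroup.center Γ),
    orderOf z = 2 ∧ z ∈ commutator Γ ∧ ∃ _ : (Subgroup.zpowers z).Normal,
      Nonempty (Γ ⧸ Subgroup.zpowers z ≃* alternatingGroup (Fin n)) := by
  haveI hfin1 : Finite (A n) := Finite.of_injective
    (fun x : A n => (x : W n → W n)) (fun x y h => LinearMap.ext (congrFun h))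
  haveI hfin2 : Finite (A n)ˣ := inferInstance
  haveI hfin3 : Finite (Gam n) := inferInstance
  refine ⟨Gam n, inferInstance, hfin3, zz hn, zz_central hn, zz_order hn, zz_commutator hn, zz_normal hn, ?_⟩
  haveI := zz_normal hn
  exact ⟨(QuotientGroup.quotientMulEquivOfEq (ker_psi hn).symm).trans
    (QuotientGroup.quotientKerEquivOfSurjective (psi n) psi_surjective)⟩

end Cfsg.Agent.Lib.DoubleCover
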